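import Cfsg.Agent.Fi22Cover.Data
import Cfsg.Agent.Schur.PrimeCertRun

/-!
Kernel checks of the combinations and new tails of the certificates, and the resulting checks of the
certificates.
-/

set_option autoImplicit false
set_option maxRecDepth 100000
set_option Elab.async false

namespace CfsgLib.Fi22Cover

open Schur.PrimePack (maskFast maskOK_of_fast pickFast ok_of_fast)
open Schur.PrimeCert (ok)

theorem all_range'_cases {f : ℕ → Bool} {s a b : ℕ} (h1 : (List.range' s a).all f = true)
    (h2 : (List.range' (s + a) b).all f = true) : (List.range' s (a + b)).all f = true := by
  rw [← List.range'_append_1, List.all_append, h1, h2]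
  rfl

theorem of_all_range' {f : ℕ → Bool} {n : ℕ} (h : (List.range' 0 n).all f = true) : ∀ i < n, f i = true :=
  fun i hi => List.all_eq_true.1 h i (List.mem_range'_1.2 ⟨Nat.zero_le i, by omega⟩)

theorem two_masks0 : (List.range' 0 77).all (maskFast certTwo maskTwo 216) = true := by decide +kernel

theorem two_masks1 : (List.range' 77 46).all (maskFast certTwo maskTwo 216) = true := by decide +kernel

theorem two_masks2 : (List.range' 123 31).all (maskFast certTwo maskTwo 216) = true := by decide +kernel

theorem two_masks3 : (List.range' 154 8).all (maskFast certTwo maskTwo 216) = true := by decide +kernel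

theorem two_masks4 : (List.range' 162 8).all (maskFast certTwo maskTwo 216) = true := by decide +kernel

theorem two_masks_all : (List.range' 0 170).all (maskFast certTwo maskTwo 216) = true :=
  (all_range'_cases (all_range'_cases (all_range'_cases (all_range'_cases two_masks0 two_masks1) two_masks2) two_masks3) two_masks4)

theorem two_picks0 : (List.range' 0 57).all (pickFast certTwo maskTwo) = true := by decide +kernel

theorem two_picks1 : (List.range' 57 57).all (pickFast certTwo maskTwo) = true := by decide +kernel

theorem two_picks2 : (List.range' 114 57).all (pickFast certTwo maskTwo) = true := by decide +kernel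

theorem two_picks_all : (List.range' 0 171).all (pickFast certTwo maskTwo) = true :=
  (all_range'_cases (all_range'_cases two_picks0 two_picks1) two_picks2)

theorem two_meta : certTwo.picks.length = 171 ∧ certTwo.rules.length = 216 ∧
    maskTwo.length = 170 ∧ Schur.PrimeCert.shapeOK certTwo = true ∧ certTwo.p = 2 := by
  decide +kernel

theorem two_ok : ok certTwo = true := by
  obtain ⟨h1, h2, h3, h4, h5⟩ := two_meta
  refine ok_of_fast maskTwo (by omega) h4 (fun i hi => maskOK_of_fast (by omega) (N := 216) ?_) fun r hr => ?_
  · exact of_all_range' two_masks_all i (by omega)
  · exact of_all_range' two_picks_all r (by omega)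

theorem three_masks0 : (List.range' 0 35).all (maskFast certThree maskThree 85) = true := by decide +kernel

theorem three_masks1 : (List.range' 35 15).all (maskFast certThree maskThree 85) = true := by decide +kernel

theorem three_masks2 : (List.range' 50 9).all (maskFast certThree maskThree 85) = true := by decide +kernel

theorem three_masks_all : (List.range' 0 59).all (maskFast certThree maskThree 85) = true :=
  (all_range'_cases (all_range'_cases three_masks0 three_masks1) three_masks2)

theorem three_picks0 : (List.range' 0 55).all (pickFast certThree maskThree) = true := by decide +kernel

theorem three_picks_all : (List.range' 0 55).all (pickFast certThree maskThree) = true :=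
  three_picks0

theorem three_meta : certThree.picks.length = 55 ∧ certThree.rules.length = 85 ∧
    maskThree.length = 59 ∧ Schur.PrimeCert.shapeOK certThree = true ∧ certThree.p = 3 := by
  decide +kernel

theorem three_ok : ok certThree = true := by
  obtain ⟨h1, h2, h3, h4, h5⟩ := three_meta
  refine ok_of_fast maskThree (by omega) h4 (fun i hi => maskOK_of_fast (by omega) (N := 85) ?_) fun r hr => ?_
  · exact of_all_range' three_masks_all i (by omega)
  · exact of_all_range' three_picks_all r (by omega)

theorem five_masks0 : (List.range' 0 5).all (maskFast certFive maskFive 9) = true := by decide +kernel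

theorem five_masks_all : (List.range' 0 5).all (maskFast certFive maskFive 9) = true :=
  five_masks0

theorem five_picks0 : (List.range' 0 3).all (pickFast certFive maskFive) = true := by decide +kernel

theorem five_picks_all : (List.range' 0 3).all (pickFast certFive maskFive) = true :=
  five_picks0

theorem five_meta : certFive.picks.length = 3 ∧ certFive.rules.length = 9 ∧
    maskFive.length = 5 ∧ Schur.PrimeCert.shapeOK certFive = true ∧ certFive.p = 5 := by
  decide +kernel

theorem five_ok : ok certFive = true := by
  obtain ⟨h1, h2, h3, h4, h5⟩ := five_meta
  refine ok_of_fast maskFive (by omega) h4 (fun i hi => maskOK_of_fast (by omega) (N := 9) ?_) fun r hr => ?_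
  · exact of_all_range' five_masks_all i (by omega)
  · exact of_all_range' five_picks_all r (by omega)

end CfsgLib.Fi22Cover
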