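import Cfsg.Agent.Fi22Cover.Vec

/-!
Faster forms of the products of packed matrices, for evaluation by the kernel.
-/

set_option autoImplicit false

namespace CfsgLib.Fi22Cover

/-- A combination of rows, stopping when no bit is left. -/
noncomputable def combF (M : List ℕ) : ℕ → ℕ → ℕ :=
  List.rec (motive := fun _ => ℕ → ℕ → ℕ) (fun _ _ => 0)
    (fun c _ go lo hi => bif Nat.beq (Nat.lor lo hi) 0 then 0 else
      Nat.xor (Nat.xor (bif Nat.beq (Nat.mod lo 2) 1 then c else 0)
        (bif Nat.beq (Nat.mod hi 2) 1 then wm c else 0))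
        (go (Nat.shiftRight lo 1) (Nat.shiftRight hi 1))) M

/-- A vector times a matrix. -/
noncomputable def vmF (M : List ℕ) (v : ℕ) : ℕ :=
  combF M (Nat.mod v 134217728) (Nat.shiftRight v 27)

/-- The product of matrices. -/
noncomputable def mulF (A B : List ℕ) : List ℕ :=
  List.rec (motive := fun _ => List ℕ) [] (fun a _ r => vmF B a :: r) A

/-- A word in packed matrices. -/
noncomputable def evF (els : List (List ℕ)) (w : List ℕ) : List ℕ :=
  List.rec (motive := fun _ => List ℕ) onePk (fun k _ r => mulF (els.getD k onePk) r) w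

theorem comb_zero_zero : ∀ M : List ℕ, comb M 0 0 = 0
  | [] => rfl
  | c :: cs => by simp [comb, comb_zero_zero cs]

theorem combF_eq : ∀ (M : List ℕ) (lo hi : ℕ), combF M lo hi = comb M lo hi
  | [], _, _ => rfl
  | c :: cs, lo, hi => by
    show (bif Nat.beq (lo ||| hi) 0 then 0 else
      ((bif Nat.beq (lo % 2) 1 then c else 0) ^^^ (bif Nat.beq (hi % 2) 1 then wm c else 0)) ^^^
        combF cs (lo >>> 1) (hi >>> 1)) = comb (c :: cs) lo hi
    rw [combF_eq cs]
    by_cases h : lo ||| hi = 0
    · obtain ⟨h1, h2⟩ := Nat.or_eq_zero_iff.1 h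
      subst h1
      subst h2
      rw [comb_zero_zero]
      rfl
    · have hb : Nat.beq (lo ||| hi) 0 = false := by
        rw [Bool.eq_false_iff]
        exact fun e => h (Nat.eq_of_beq_eq_true e)
      have key : ∀ n : ℕ, Nat.beq (n % 2) 1 = n.testBit 0 := by
        intro n
        rw [Nat.testBit_zero]
        rcases Nat.mod_two_eq_zero_or_one n with e | e <;> rw [e] <;> rfl
      rw [hb, key, key, comb]
      rfl

theorem vmF_eq {M : List ℕ} (h : M.length ≤ 27) (v : ℕ) : vmF M v = vm M v := by
  rw [vmF, combF_eq]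
  refine comb_low M _ _ _ _ (fun j hj => ?_) (fun _ _ => rfl)
  show (v % 134217728).testBit j = v.testBit j
  rw [show 134217728 = 2 ^ 27 by norm_num, Nat.testBit_mod_two_pow]
  simp [show j < 27 by omega]

theorem mulF_eq {B : List ℕ} (h : B.length ≤ 27) : ∀ A : List ℕ, mulF A B = mul A B
  | [] => rfl
  | a :: as => by
    show vmF B a :: mulF as B = mul (a :: as) B
    rw [vmF_eq h, mulF_eq h]
    rfl

theorem evF_eq_and_length {els : List (List ℕ)} (h : ∀ M ∈ els, M.length = 27) : ∀ w : List ℕ,
    (evF els w).length = 27 ∧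
      evF els w = List.foldr (fun k r => mul (els.getD k onePk) r) onePk w
  | [] => ⟨(by decide : onePk.length = 27), rfl⟩
  | k :: w => by
    obtain ⟨hl, he⟩ := evF_eq_and_length h w
    have hk : (els.getD k onePk).length = 27 := by
      rcases lt_or_ge k els.length with hlt | hge
      · rw [List.getD_eq_getElem _ _ hlt]
        exact h _ (List.getElem_mem hlt)
      · rw [List.getD_eq_default _ _ hge]
        decide
    have e : evF els (k :: w) = mul (els.getD k onePk) (evF els w) := mulF_eq hl.le _
    exact ⟨by rw [e, mul, List.length_map, hk], by rw [e, he]; rfl⟩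

end CfsgLib.Fi22Cover
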