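import Cfsg.Agent.Fi22Cover.Data
import Cfsg.Agent.Fi22Cover.Fast
import Cfsg.Agent.Schur.PrimeCertPack
import Cfsg.Agent.CosetEnum.Fi22.Table
import Cfsg.Agent.CosetEnum.Fi23.Table

/-!
Kernel checks for the sixfold cover of Fi22.
-/

set_option autoImplicit false
set_option maxRecDepth 100000
set_option Elab.async false

namespace CfsgLib.Fi22Cover

open Schur.PrimeCert (Cert)
open CosetEnum (runT)

/-- A word in packed matrices. -/
def evT (els : List (List ℕ)) : List ℕ → List ℕ
  | [] => onePk
  | k :: w => mul (els.getD k onePk) (evT els w)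

theorem evT_eq_foldr (els : List (List ℕ)) : ∀ w : List ℕ,
    evT els w = List.foldr (fun k r => mul (els.getD k onePk) r) onePk w
  | [] => rfl
  | k :: w => by rw [evT, List.foldr_cons, evT_eq_foldr els w]

theorem evF_evT {els : List (List ℕ)} (h : els.all okM = true) (w : List ℕ) : evF els w = evT els w := by
  rw [(evF_eq_and_length (fun M hM => (okM_spec (List.all_eq_true.1 h M hM)).1) w).2, evT_eq_foldr]

/-- One point followed along a list of chosen words. -/
noncomputable def runEls (words : List (List ℕ)) : List ℕ → ℕ → ℕ
  | [], v => v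
  | k :: w, v => runEls words w (runT CosetEnum.Fi23.Tab.perm.T 10 (words.getD k []) v)

/-- A scalar matrix. -/
def isScal (M : List ℕ) : Bool := eqM M onePk || eqM M omPk || eqM M (mul omPk omPk)

/-- A list contains a number. -/
def hasN (l : List ℕ) (v : ℕ) : Bool := l.any fun u => Nat.beq u v

/-- A generator acting on a witness. -/
noncomputable def actOn (words : List (List ℕ)) (mats : List (List ℕ)) (isPt : Bool) (k v : ℕ) : ℕ :=
  bif isPt then runT CosetEnum.Fi23.Tab.perm.T 10 (words.getD k []) v else vmF (mats.getD k onePk) v

/-- The first `e` images. -/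
noncomputable def iterA (f : ℕ → ℕ) : ℕ → ℕ → List ℕ
  | 0, _ => []
  | e + 1, v => f v :: iterA f e (f v)

/-- The witness of generator `k` leaves its orbit under the earlier generators. -/
noncomputable def witStep (words mats : List (List ℕ)) (wit : List (Bool × ℕ × List ℕ)) (p k : ℕ) : Bool :=
  let t := wit.getD k (true, 0, [])
  t.2.2.all (fun v => Nat.blt v (bif t.1 then 31671 else size)) && hasN t.2.2 t.2.1 &&
    (List.range k).all (fun j => t.2.2.all fun v => hasN t.2.2 (actOn words mats t.1 j v)) &&
    (iterA (actOn words mats t.1 k) (p - 1) t.2.1).all fun w => !hasN t.2.2 w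

/-- The words and matrices of the elements of a certificate fit. -/
noncomputable def elsCheck (words mats : List (List ℕ)) (ks : List ℕ) : Bool :=
  ks.all fun k => (words.getD k []).all (fun x => Nat.blt x 9) &&
      eqM (evF genPk (words.getD k [])) (mats.getD k onePk)

/-- The relations of a certificate hold in the cover. -/
noncomputable def rulesCheck (c : Cert) (words mats : List (List ℕ)) (rs : List ℕ) : Bool :=
  rs.all fun r =>
    eqM (evF mats (c.rules.getD r ([], [])).1) (evF mats (c.rules.getD r ([], [])).2) &&
      Nat.beq (runEls words (c.rules.getD r ([], [])).1 1) (runEls words (c.rules.getD r ([], [])).2 1)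

/-- The word of the scalar. -/
def spiderWord : List ℕ := (List.replicate 10 [3, 2, 1, 3, 4, 5, 3, 7, 8]).flatten

end CfsgLib.Fi22Cover
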