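import Cfsg.Agent.Fi22Cover.ChecksDefs

/-!
Kernel checks: the matrices of the certificates are those of the words.
-/

set_option autoImplicit false
set_option maxRecDepth 100000
set_option Elab.async false

namespace CfsgLib.Fi22Cover

theorem two_els0 : elsCheck wordTwo matTwo (List.range' 0 10) = true := by decide +kernel

theorem two_els1 : elsCheck wordTwo matTwo (List.range' 10 3) = true := by decide +kernel

theorem two_els2 : elsCheck wordTwo matTwo (List.range' 13 3) = true := by decide +kernel

theorem two_els3 : elsCheck wordTwo matTwo (List.range' 16 2) = true := by decide +kernel

theorem two_els4 : elsCheck wordTwo matTwo (List.range' 18 5) = true := by decide +kernel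

theorem three_els0 : elsCheck wordThree matThree (List.range' 0 7) = true := by decide +kernel

theorem three_els1 : elsCheck wordThree matThree (List.range' 7 7) = true := by decide +kernel

theorem five_els0 : elsCheck wordFive matFive (List.range' 0 4) = true := by decide +kernel

end CfsgLib.Fi22Cover
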