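import Cfsg.Agent.Fi22Cover.ChecksDefs

/-!
Kernel checks on the generators of the sixfold cover.
-/

set_option autoImplicit false
set_option maxRecDepth 100000
set_option Elab.async false

namespace CfsgLib.Fi22Cover

theorem check_gens : Nat.beq genPk.length 9 = true ∧ genPk.all okM = true ∧
    (List.range 9).all (fun x => eqM (mulF (genPk.getD x onePk) (genPk.getD x onePk)) onePk) = true := by
  decide +kernel

theorem check_rels : CosetEnum.Fi22.Tab.relWords.all (fun w => isScal (evF genPk w)) = true ∧
    CosetEnum.Fi22.Tab.relWords.all (fun w => w.all fun x => Nat.blt x 9) = true := by decide +kernel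

theorem check_spider : eqM (evF genPk spiderWord) (mul omPk omPk) = true := by decide +kernel

theorem check_spare : eqM (evF genPk (List.replicate 9 [1, 2, 3, 4, 5, 6, 7]).flatten) onePk = true ∧
    eqM (evF genPk (List.replicate 9 [0, 1, 2, 3, 4, 5, 7]).flatten) onePk = true := by decide +kernel

theorem check_braids : (List.range 9).all (fun i => (List.range 9).all fun j =>
    !CosetEnum.Fi22.Tab.relWords.contains [i, j, i, j, i, j] ||
      eqM (evF genPk [i, j, i, j, i, j]) onePk) = true := by decide +kernel

theorem check_mats : matTwo.all okM = true ∧ matThree.all okM = true ∧ matFive.all okM = true ∧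
    matTwo.length = 23 ∧ matThree.length = 14 ∧ matFive.length = 4 ∧
    wordTwo.length = 23 ∧ wordThree.length = 14 ∧ wordFive.length = 4 := by decide +kernel

end CfsgLib.Fi22Cover
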