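import Cfsg.Agent.Fi22Cover.ChecksDefs

/-!
Kernel checks of the rules and witnesses of the certificates.
-/

set_option autoImplicit false
set_option maxRecDepth 100000
set_option Elab.async false

namespace CfsgLib.Fi22Cover

theorem two_base : certTwo.p = 2 ∧ certTwo.n = 18 ∧ certTwo.picks.length = 171 ∧
    certTwo.rules.length = 216 ∧ maskTwo.length = 170 ∧ Schur.PrimeCert.shapeOK certTwo = true := by
  decide +kernel

theorem two_wit : (List.range 18).all (witStep wordTwo matTwo witTwo 2) = true := by decide +kernel

theorem two_rules0 : rulesCheck certTwo wordTwo matTwo (List.range' 0 27) = true := by decide +kernel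

theorem two_rules1 : rulesCheck certTwo wordTwo matTwo (List.range' 27 27) = true := by decide +kernel

theorem two_rules2 : rulesCheck certTwo wordTwo matTwo (List.range' 54 27) = true := by decide +kernel

theorem two_rules3 : rulesCheck certTwo wordTwo matTwo (List.range' 81 27) = true := by decide +kernel

theorem two_rules4 : rulesCheck certTwo wordTwo matTwo (List.range' 108 27) = true := by decide +kernel

theorem two_rules5 : rulesCheck certTwo wordTwo matTwo (List.range' 135 27) = true := by decide +kernel

theorem two_rules6 : rulesCheck certTwo wordTwo matTwo (List.range' 162 27) = true := by decide +kernel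

theorem two_rules7 : rulesCheck certTwo wordTwo matTwo (List.range' 189 27) = true := by decide +kernel

theorem three_base : certThree.p = 3 ∧ certThree.n = 10 ∧ certThree.picks.length = 55 ∧
    certThree.rules.length = 85 ∧ maskThree.length = 59 ∧ Schur.PrimeCert.shapeOK certThree = true := by
  decide +kernel

theorem three_wit : (List.range 10).all (witStep wordThree matThree witThree 3) = true := by decide +kernel

theorem three_rules0 : rulesCheck certThree wordThree matThree (List.range' 0 43) = true := by decide +kernel

theorem three_rules1 : rulesCheck certThree wordThree matThree (List.range' 43 42) = true := by decide +kernel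

theorem five_base : certFive.p = 5 ∧ certFive.n = 2 ∧ certFive.picks.length = 3 ∧
    certFive.rules.length = 9 ∧ maskFive.length = 5 ∧ Schur.PrimeCert.shapeOK certFive = true := by
  decide +kernel

theorem five_wit : (List.range 2).all (witStep wordFive matFive witFive 5) = true := by decide +kernel

theorem five_rules0 : rulesCheck certFive wordFive matFive (List.range' 0 9) = true := by decide +kernel

end CfsgLib.Fi22Cover
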