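import Cfsg.Agent.Fi22Cover.Matrices
import Cfsg.Agent.CosetEnum.Fi23.Cover

/-!
The sixfold cover of Fi22: pairs of an element of the double cover in Fi23 and a matrix.
-/

set_option autoImplicit false
set_option maxRecDepth 100000

namespace CfsgLib.Fi22Cover

open CosetEnum (gword gword_cons gword_nil runT)

attribute [local irreducible] genPk CosetEnum.Fi22.Tab.relWords spiderWord CosetEnum.Fi23.zW genU

/-- The double cover as pairs of permutations. -/
noncomputable def toGamma : CosetEnum.Fi23.Hs →* CosetEnum.Fi23.Gamma :=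
  (MonoidHom.ofInjective CosetEnum.Fi23.toPts_injective).symm.toMonoidHom.comp
    ((CosetEnum.Fi23.pi.comp CosetEnum.Fi23.Hs.subtype).codRestrict CosetEnum.Fi23.toPts.range fun h => by
      rw [CosetEnum.Fi23.toPts_range]
      exact Subgroup.mem_map_of_mem CosetEnum.Fi23.pi h.2)

theorem toPts_toGamma (h : CosetEnum.Fi23.Hs) :
    CosetEnum.Fi23.toPts (toGamma h) = CosetEnum.Fi23.pi h :=
  MonoidHom.apply_ofInjective_symm CosetEnum.Fi23.toPts_injective _

/-- The double cover mapped onto Fi22. -/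
noncomputable def dbl : CosetEnum.Fi23.Hs →* Cfsg.Spor.Fi22 :=
  (MonoidHom.ofInjective CosetEnum.Fi22.pi_injective).symm.toMonoidHom.comp
    ((CosetEnum.Fi23.toSub.comp toGamma).codRestrict CosetEnum.Fi22.pi.range fun h => by
      rw [← CosetEnum.Fi23.toSub_range]
      exact ⟨_, rfl⟩)

theorem pi_dbl (h : CosetEnum.Fi23.Hs) :
    CosetEnum.Fi22.pi (dbl h) = CosetEnum.Fi23.toSub (toGamma h) :=
  MonoidHom.apply_ofInjective_symm CosetEnum.Fi22.pi_injective _

theorem dbl_gen {x : ℕ} (hx : x < 9) :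
    dbl ⟨CosetEnum.Fi23.g10 x, CosetEnum.Fi23.g10_mem_Hs hx⟩ = CosetEnum.Fi22.gen x := by
  refine CosetEnum.Fi22.pi_injective ?_
  rw [pi_dbl, CosetEnum.Fi22.pi_gen hx]
  have hp : toGamma ⟨CosetEnum.Fi23.g10 x, CosetEnum.Fi23.g10_mem_Hs hx⟩ =
      ⟨_, Subgroup.subset_closure ⟨x, hx, rfl⟩⟩ := by
    refine CosetEnum.Fi23.toPts_injective ?_
    rw [toPts_toGamma]
    show CosetEnum.Fi23.pi (CosetEnum.Fi23.g10 x) = CosetEnum.Fi23.perm_ok.sigma x
    rw [CosetEnum.Fi23.g10, CosetEnum.letterVal_lt _ (by omega), CosetEnum.Fi23.pi_gen (by omega)]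
  rw [hp]
  rfl

theorem dbl_ker {h : CosetEnum.Fi23.Hs} (hh : dbl h = 1) :
    (h : Cfsg.Spor.Fi23) = 1 ∨ (h : Cfsg.Spor.Fi23) = CosetEnum.Fi23.z0 := by
  have hs : toGamma h ∈ CosetEnum.Fi23.toSub.ker := by
    rw [MonoidHom.mem_ker, ← pi_dbl, hh, map_one]
  have hp : (toGamma h).1.1 = CosetEnum.Fi23.pi h := toPts_toGamma h
  rcases CosetEnum.Fi23.eq_one_or_zW hs with e | e <;> rw [hp] at e
  · exact Or.inl (CosetEnum.Fi23.pi_injective (e.trans (map_one _).symm))
  · exact Or.inr (CosetEnum.Fi23.pi_injective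
      (e.trans (CosetEnum.Fi23.pi_gword _ CosetEnum.Fi23.zW_lt10).symm))

/-- A generator of the cover. -/
noncomputable def genE (x : ℕ) : Cfsg.Spor.Fi23 × PermV := (CosetEnum.Fi23.g10 x, genU x)

/-- The sixfold cover. -/
noncomputable def Cov : Subgroup (Cfsg.Spor.Fi23 × PermV) := Subgroup.closure {g | ∃ x < 9, genE x = g}

theorem genE_mem {x : ℕ} (hx : x < 9) : genE x ∈ Cov := Subgroup.subset_closure ⟨x, hx, rfl⟩

/-- A generator in the cover. -/
noncomputable def genC (x : ℕ) : Cov := if h : x < 9 then ⟨genE x, genE_mem h⟩ else 1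

theorem coe_gword_genC {w : List ℕ} (hw : ∀ x ∈ w, x < 9) :
    ((gword genC w : Cov) : Cfsg.Spor.Fi23 × PermV) =
      (gword CosetEnum.Fi23.g10 w, gword genU w) := by
  induction w with
  | nil => rw [gword_nil, gword_nil, gword_nil]; rfl
  | cons x w ih =>
    rw [gword_cons, gword_cons, gword_cons, Subgroup.coe_mul, ih fun y hy => hw y (List.mem_cons_of_mem _ hy),
      genC, dif_pos (hw x List.mem_cons_self)]
    rfl

theorem mem_Cov {g : Cfsg.Spor.Fi23 × PermV} (hg : g ∈ Cov) :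
    ∃ (h1 : g.1 ∈ CosetEnum.Fi23.Hs) (h2 : g.2 ∈ GamV),
      proj (dbl ⟨g.1, h1⟩) = QuotientGroup.mk (⟨g.2, h2⟩ : GamV) := by
  induction hg using Subgroup.closure_induction with
  | mem g hg =>
    obtain ⟨x, hx, rfl⟩ := hg
    refine ⟨CosetEnum.Fi23.g10_mem_Hs hx, genU_mem hx, ?_⟩
    show proj (dbl ⟨CosetEnum.Fi23.g10 x, _⟩) = _
    rw [dbl_gen hx, proj_gen hx, genG, dif_pos hx]
    rfl
  | one =>
    refine ⟨one_mem _, one_mem _, ?_⟩
    show proj (dbl 1) = QuotientGroup.mk (1 : GamV)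
    rw [map_one, map_one, QuotientGroup.mk_one]
  | mul a b _ _ ha hb =>
    obtain ⟨a1, a2, ae⟩ := ha
    obtain ⟨b1, b2, be⟩ := hb
    refine ⟨mul_mem a1 b1, mul_mem a2 b2, ?_⟩
    show proj (dbl (⟨a.1, a1⟩ * ⟨b.1, b1⟩)) = QuotientGroup.mk (⟨a.2, a2⟩ * ⟨b.2, b2⟩ : GamV)
    rw [map_mul, map_mul, QuotientGroup.mk_mul, ae, be]
  | inv a _ ha =>
    obtain ⟨a1, a2, ae⟩ := ha
    refine ⟨inv_mem a1, inv_mem a2, ?_⟩
    show proj (dbl (⟨a.1, a1⟩⁻¹)) = QuotientGroup.mk ((⟨a.2, a2⟩ : GamV)⁻¹)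
    rw [map_inv, map_inv, QuotientGroup.mk_inv, ae]

/-- The first component. -/
noncomputable def fstH : Cov →* CosetEnum.Fi23.Hs :=
  ((MonoidHom.fst _ _).comp Cov.subtype).codRestrict _ fun g => (mem_Cov g.2).1

/-- The second component. -/
noncomputable def sndV : Cov →* GamV :=
  ((MonoidHom.snd _ _).comp Cov.subtype).codRestrict _ fun g => (mem_Cov g.2).2.1

/-- The covering map. -/
noncomputable def cover : Cov →* Cfsg.Spor.Fi22 := dbl.comp fstH

theorem proj_cover (g : Cov) : proj (cover g) = QuotientGroup.mk (sndV g) := (mem_Cov g.2).2.2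

theorem cover_surjective : Function.Surjective cover := by
  intro q
  have htop : q ∈ Subgroup.closure (Set.range fun x : {x : ℕ // x < 9} => CosetEnum.Fi22.gen x) := by
    have h : (⊤ : Subgroup Cfsg.Spor.Fi22) ≤
        Subgroup.closure (Set.range fun x : {x : ℕ // x < 9} => CosetEnum.Fi22.gen x) := by
      rw [← PresentedGroup.closure_range_of, Subgroup.closure_le]
      rintro _ ⟨a, rfl⟩
      exact Subgroup.subset_closure ⟨⟨_, CosetEnum.Fi22.enc_lt a⟩, by
        show CosetEnum.Fi22.gen (CosetEnum.Fi22.enc a) = _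
        rw [CosetEnum.Fi22.gen, CosetEnum.Fi22.dec_enc]⟩
    exact h (Subgroup.mem_top q)
  have hle : Subgroup.closure (Set.range fun x : {x : ℕ // x < 9} => CosetEnum.Fi22.gen x) ≤ cover.range := by
    rw [Subgroup.closure_le]
    rintro _ ⟨⟨x, hx⟩, rfl⟩
    exact ⟨⟨genE x, genE_mem hx⟩, dbl_gen hx⟩
  exact hle htop

theorem snd_mem_Z {g : Cov} (hg : g ∈ cover.ker) : sndV g ∈ Z := by
  rw [← QuotientGroup.eq_one_iff, ← proj_cover, MonoidHom.mem_ker.1 hg, map_one]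

theorem fst_mem_ker {g : Cov} (hg : g ∈ cover.ker) :
    (g : Cfsg.Spor.Fi23 × PermV).1 = 1 ∨ (g : Cfsg.Spor.Fi23 × PermV).1 = CosetEnum.Fi23.z0 :=
  dbl_ker (h := fstH g) (MonoidHom.mem_ker.1 hg)

/-- Elements with the same second component and the same image of the point 1 are equal. -/
theorem eq_of_snd_of_point {a b : Cov} (h2 : sndV a = sndV b)
    (hpt : (CosetEnum.Fi23.pi (a : Cfsg.Spor.Fi23 × PermV).1)⁻¹ (CosetEnum.Fi23.pt 1) =
      (CosetEnum.Fi23.pi (b : Cfsg.Spor.Fi23 × PermV).1)⁻¹ (CosetEnum.Fi23.pt 1)) : a = b := by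
  have hk : a * b⁻¹ ∈ cover.ker := by
    rw [MonoidHom.mem_ker, ← proj_injective.eq_iff, map_one, proj_cover, map_mul, map_inv, h2,
      mul_inv_cancel, QuotientGroup.mk_one]
  refine mul_inv_eq_one.1 (Subtype.ext (Prod.ext ?_ (congrArg Subtype.val (show sndV (a * b⁻¹) = 1 by
    rw [map_mul, map_inv, h2, mul_inv_cancel]))))
  rcases fst_mem_ker hk with h | h
  · exact h
  · exfalso
    have h' := congrArg (fun q => (CosetEnum.Fi23.pi q)⁻¹) h
    simp only [Subgroup.coe_mul, Subgroup.coe_inv, Prod.fst_mul, Prod.fst_inv, map_mul, map_inv,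
      mul_inv_rev, inv_inv] at h'
    have h'' := DFunLike.congr_fun h' (CosetEnum.Fi23.pt 1)
    rw [Equiv.Perm.mul_apply, hpt, ← Equiv.Perm.mul_apply, mul_inv_cancel, Equiv.Perm.one_apply, CosetEnum.Fi23.z0,
      CosetEnum.Fi23.pi_gword _ CosetEnum.Fi23.zW_lt10] at h''
    refine CosetEnum.Fi23.zW_moves ?_
    have h3 := CosetEnum.Fi23.perm_ok.gword_inv_apply CosetEnum.Fi23.zW
      (fun x hx => Nat.lt_succ_of_lt (CosetEnum.Fi23.zW_lt x hx)) (CosetEnum.Fi23.pt 1)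
    rw [← h'', CosetEnum.Fi23.pt_val] at h3
    exact h3.symm

end CfsgLib.Fi22Cover
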