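import Cfsg.Agent.Fi22Cover.Group

/-!
The kernel of the sixfold cover of Fi22 is cyclic of order six and the cover is perfect.
-/

set_option autoImplicit false
set_option maxRecDepth 100000

namespace CfsgLib.Fi22Cover

open CosetEnum (gword gword_cons gword_nil runT)

attribute [local irreducible] genPk CosetEnum.Fi22.Tab.relWords CosetEnum.Fi23.Tab.relWords spiderWord
  genU

theorem spider_base : CosetEnum.Fi23.basePts.all (fun i => Nat.beq
    (runT CosetEnum.Fi23.Tab.perm.T CosetEnum.Fi23.Tab.perm.L spiderWord i)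
    (runT CosetEnum.Fi23.Tab.perm.T CosetEnum.Fi23.Tab.perm.L [] i)) = true := by decide +kernel

theorem gword_spider : gword CosetEnum.Fi23.g10 spiderWord = 1 := by
  rw [CosetEnum.Fi23.gword_eq_of_base (fun x hx => Nat.lt_succ_of_lt (spiderWord_lt x hx))
    (by simp) spider_base, gword_nil]

theorem zW_rep : eqM (evT genPk CosetEnum.Fi23.zW) onePk = true := by
  rw [← evF_evT check_gens.2.1]
  exact check_spare.1

theorem zW_snd : gword genU CosetEnum.Fi23.zW = 1 :=
  (rep_gword _).eq (eqM_eq zW_rep ▸ Rep.one)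

/-- A generator of the kernel. -/
noncomputable def ker6 : Cov := gword genC spiderWord * gword genC CosetEnum.Fi23.zW

theorem coe_ker6 : (ker6 : Cfsg.Spor.Fi23 × PermV) = (CosetEnum.Fi23.z0, (om : PermV)) := by
  rw [ker6, Subgroup.coe_mul, coe_gword_genC spiderWord_lt, coe_gword_genC CosetEnum.Fi23.zW_lt,
    gword_spider, zW_snd, Prod.mk_mul_mk, one_mul, mul_one, om, coe_gword_genG spiderWord_lt]
  rfl

theorem sndV_ker6 : sndV ker6 = om := Subtype.ext (congrArg Prod.snd coe_ker6)

theorem ker6_mem : ker6 ∈ cover.ker := by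
  rw [MonoidHom.mem_ker, ← proj_injective.eq_iff, map_one, proj_cover, sndV_ker6,
    QuotientGroup.eq_one_iff]
  exact Subgroup.mem_zpowers om

theorem om_ne : om ≠ 1 ∧ om ^ 2 ≠ 1 := by
  have key : vm (Fi22Cover.mul omPk omPk) 1 ≠ vm onePk 1 ∧ vm omPk 1 ≠ vm onePk 1 := by decide +kernel
  constructor
  · intro h
    have h1 := rep_om.2 ⟨1, by norm_num [size]⟩
    rw [h, OneMemClass.coe_one, Rep.one.2] at h1
    exact key.1 h1.symm
  · intro h
    have h1 := rep_om_sq.2 ⟨1, by norm_num [size]⟩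
    rw [h, OneMemClass.coe_one, Rep.one.2] at h1
    exact key.2 h1.symm

theorem z0_pow : ∀ n : ℕ, CosetEnum.Fi23.z0 ^ n = CosetEnum.Fi23.z0 ^ (n % 2) := fun n => by
  conv_lhs => rw [← Nat.div_add_mod n 2, pow_add, pow_mul, pow_two, CosetEnum.Fi23.z0_sq, one_pow, one_mul]

theorem om_pow : ∀ n : ℕ, om ^ n = om ^ (n % 3) := fun n => by
  conv_lhs => rw [← Nat.div_add_mod n 3, pow_add, pow_mul, om_cube, one_pow, one_mul]

theorem coe_pow_ker6 (n : ℕ) : ((ker6 ^ n : Cov) : Cfsg.Spor.Fi23 × PermV) =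
    (CosetEnum.Fi23.z0 ^ n, ((om ^ n : GamV) : PermV)) := by
  rw [Subgroup.coe_pow, coe_ker6, Prod.pow_mk, Subgroup.coe_pow]

theorem ker_eq : cover.ker = Subgroup.zpowers ker6 := by
  refine le_antisymm (fun g hg => ?_) (Subgroup.zpowers_le.2 ker6_mem)
  have hs := snd_mem_Z hg
  obtain ⟨i, hi, he⟩ := (isOfFinOrder_of_finite om).mem_zpowers_iff_mem_range_orderOf.trans
    Finset.mem_image |>.1 (show sndV g ∈ Subgroup.zpowers om from hs)
  obtain ⟨b, hb, hfst⟩ : ∃ b < 2, (g : Cfsg.Spor.Fi23 × PermV).1 = CosetEnum.Fi23.z0 ^ b := by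
    rcases fst_mem_ker hg with h | h
    · exact ⟨0, by norm_num, by rw [h, pow_zero]⟩
    · exact ⟨1, by norm_num, by rw [h, pow_one]⟩
  have hpow : ker6 ^ (4 * i + 3 * b) = g := by
    refine Subtype.ext ?_
    rw [coe_pow_ker6, z0_pow, om_pow, show (4 * i + 3 * b) % 2 = b by omega,
      show (4 * i + 3 * b) % 3 = i % 3 by omega, ← om_pow, ← hfst, he]
    rfl
  rw [← hpow]
  exact Subgroup.npow_mem_zpowers _ _

theorem orderOf_ker6 : orderOf ker6 = 6 := by
  have h6 : ker6 ^ 6 = 1 := by
    refine Subtype.ext ?_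
    rw [coe_pow_ker6, z0_pow, om_pow, show (6 : ℕ) % 2 = 0 from rfl, pow_zero, pow_zero]
    rfl
  have h2 : ker6 ^ 2 ≠ 1 := fun h => om_ne.2 (Subtype.ext (by
    have := congrArg Prod.snd (coe_pow_ker6 2)
    rw [h] at this
    exact this.symm))
  have h3 : ker6 ^ 3 ≠ 1 := fun h => CosetEnum.Fi23.z0_ne (by
    have := congrArg Prod.fst (coe_pow_ker6 3)
    rw [h, z0_pow, show 3 % 2 = 1 from rfl, pow_one] at this
    exact this.symm)
  have hd := orderOf_dvd_of_pow_eq_one h6
  have hle := Nat.le_of_dvd (by norm_num) hd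
  have n2 : ¬ orderOf ker6 ∣ 2 := fun h => h2 (orderOf_dvd_iff_pow_eq_one.1 h)
  have n3 : ¬ orderOf ker6 ∣ 3 := fun h => h3 (orderOf_dvd_iff_pow_eq_one.1 h)
  interval_cases h : orderOf ker6 <;> revert hd n2 n3 <;> norm_num

theorem ker_card : Nat.card cover.ker = 6 ∧ IsCyclic cover.ker := by
  rw [ker_eq]
  exact ⟨by rw [Nat.card_zpowers, orderOf_ker6], inferInstance⟩

theorem card_cov : Nat.card Cov = 387370509926400 := by
  have e := Subgroup.card_eq_card_quotient_mul_card_subgroup cover.ker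
  rw [Nat.card_congr (QuotientGroup.quotientKerEquivOfSurjective cover cover_surjective).toEquiv,
    CosetEnum.Fi22.card_fi22, ker_card.1] at e
  rw [e]

instance finite_cov : Finite Cov := Nat.finite_of_card_ne_zero (by rw [card_cov]; norm_num)

theorem ker6_central : ker6 ∈ Subgroup.center Cov := by
  refine Subgroup.mem_center_iff.2 fun a => Subtype.ext ?_
  rw [Subgroup.coe_mul, Subgroup.coe_mul, coe_ker6]
  obtain ⟨h1, h2, -⟩ := mem_Cov a.2
  exact Prod.ext (CosetEnum.Fi23.commute_of_mem h1).symm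
    (congrArg Subtype.val (om_comm ⟨_, h2⟩))

theorem genC_sq (x : ℕ) : genC x * genC x = 1 := by
  rw [genC]
  split
  · exact Subtype.ext (Prod.ext (CosetEnum.Fi23.g10_sq x) (genU_sq x))
  · exact mul_one 1

theorem gword_genC_eq_one {w : List ℕ} (hw : ∀ x ∈ w, x < 9) (h2 : eqM (evF genPk w) onePk = true)
    (h1 : CosetEnum.Fi23.Tab.relWords.contains w = true) : gword genC w = 1 := by
  refine Subtype.ext ?_
  rw [coe_gword_genC hw, CosetEnum.Fi23.gword_relWords w (List.contains_iff_mem.1 h1),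
    (rep_gword w).eq (eqM_eq (evF_evT check_gens.2.1 w ▸ h2) ▸ Rep.one)]
  rfl

theorem braid_check : ([(0, 1), (1, 2), (2, 3), (3, 4), (4, 5), (5, 6), (3, 7), (7, 8)] : List (ℕ × ℕ)).all
    (fun q => CosetEnum.Fi22.Tab.relWords.contains [q.1, q.2, q.1, q.2, q.1, q.2] &&
      CosetEnum.Fi23.Tab.relWords.contains [q.1, q.2, q.1, q.2, q.1, q.2]) = true ∧
    CosetEnum.Fi23.Tab.relWords.contains (List.replicate 9 [0, 1, 2, 3, 4, 5, 7]).flatten = true := by
  decide +kernel

/-- In an abelian image all generators are trivial. -/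
theorem gens_trivial {A : Type*} [CommGroup A] (f : Cov →* A) (x : ℕ) : f (genC x) = 1 := by
  set t : ℕ → A := fun x => f (genC x) with ht
  have sq : ∀ x, t x * t x = 1 := fun x => by simp only [ht, ← map_mul, genC_sq, map_one]
  have hword : ∀ w : List ℕ, f (gword genC w) = (w.map t).prod := by
    intro w
    induction w with
    | nil => rw [gword_nil, map_one]; rfl
    | cons x w ih => rw [gword_cons, map_mul, ih, List.map_cons, List.prod_cons]
  have braid : ∀ a b, (a, b) ∈ [(0, 1), (1, 2), (2, 3), (3, 4), (4, 5), (5, 6), (3, 7), (7, 8)] →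
      t a = t b := by
    intro a b hm
    have hb := List.all_eq_true.1 braid_check.1 (a, b) hm
    rw [Bool.and_eq_true] at hb
    have hlt : a < 9 ∧ b < 9 := by
      simp only [List.mem_cons, List.not_mem_nil, or_false, Prod.mk.injEq] at hm
      omega
    have hsnd := List.all_eq_true.1 (List.all_eq_true.1 check_braids a (List.mem_range.2 hlt.1)) b
      (List.mem_range.2 hlt.2)
    rw [hb.1, Bool.not_true, Bool.false_or] at hsnd
    have h3 := hword [a, b, a, b, a, b]
    rw [gword_genC_eq_one (by simp [hlt]) hsnd hb.2, map_one] at h3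
    simp only [List.map_cons, List.map_nil, List.prod_cons, List.prod_nil, mul_one] at h3
    have e : t a * (t b * (t a * (t b * (t a * t b)))) = (t a * t a) * (t b * t b) * (t a * t b) := by
      simp only [mul_assoc, mul_left_comm (t b) (t a)]
    rw [e, sq, sq, one_mul, one_mul] at h3
    calc t a = t a * (t b * t b) := by rw [sq, mul_one]
      _ = t b := by rw [← mul_assoc, ← h3, one_mul]
  have f1 : t 1 = t 0 := (braid 0 1 (by simp)).symm
  have f2 : t 2 = t 0 := (braid 1 2 (by simp)).symm.trans f1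
  have f3 : t 3 = t 0 := (braid 2 3 (by simp)).symm.trans f2
  have f4 : t 4 = t 0 := (braid 3 4 (by simp)).symm.trans f3
  have f5 : t 5 = t 0 := (braid 4 5 (by simp)).symm.trans f4
  have f6 : t 6 = t 0 := (braid 5 6 (by simp)).symm.trans f5
  have f7 : t 7 = t 0 := (braid 3 7 (by simp)).symm.trans f3
  have f8 : t 8 = t 0 := (braid 7 8 (by simp)).symm.trans f7
  have h0 : t 0 = 1 := by
    have h := hword (List.replicate 9 [0, 1, 2, 3, 4, 5, 7]).flatten
    rw [gword_genC_eq_one (by decide) check_spare.2 braid_check.2, map_one] at h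
    rw [List.prod_eq_pow_card _ (t 0) (by
      intro y hy
      obtain ⟨k, hk, rfl⟩ := List.mem_map.1 hy
      obtain ⟨u, hu, hku⟩ := List.mem_flatten.1 hk
      rw [List.eq_of_mem_replicate hu] at hku
      simp only [List.mem_cons, List.not_mem_nil, or_false] at hku
      rcases hku with rfl | rfl | rfl | rfl | rfl | rfl | rfl
      exacts [rfl, f1, f2, f3, f4, f5, f7]), List.length_map, List.length_flatten, List.map_replicate,
      List.sum_replicate, show 9 • [0, 1, 2, 3, 4, 5, 7].length = 2 * 31 + 1 from rfl, pow_succ,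
      pow_mul, pow_two, sq, one_pow, one_mul] at h
    exact h.symm
  show t x = 1
  by_cases hx : x < 9
  · interval_cases x <;> simp only [f1, f2, f3, f4, f5, f6, f7, f8, h0]
  · simp only [ht, genC, dif_neg hx, map_one]

theorem commutator_cov : commutator Cov = ⊤ := by
  rw [eq_top_iff, ← Abelianization.ker_of]
  rintro ⟨g, hg⟩ -
  induction hg using Subgroup.closure_induction with
  | mem y hy =>
    obtain ⟨x, hx, rfl⟩ := hy
    rw [MonoidHom.mem_ker, ← show genC x = (⟨genE x, genE_mem hx⟩ : Cov) from dif_pos hx]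
    exact gens_trivial Abelianization.of x
  | one => exact Subgroup.one_mem _
  | mul a b ha hb iha ihb => exact Subgroup.mul_mem _ iha ihb
  | inv a ha iha => exact Subgroup.inv_mem _ iha

theorem stem_cover : Cfsg.IsStemExtension cover :=
  ⟨cover_surjective, by rw [ker_eq, Subgroup.zpowers_le]; exact ker6_central,
    by rw [commutator_cov]; exact le_top⟩

end CfsgLib.Fi22Cover
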