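import Cfsg.Agent.Fi22Cover.ChecksGens
import Cfsg.Agent.CosetEnum.Fi22.Simple

/-!
The triple cover of Fi22 as permutations of packed vectors, and the projective representation of the
presented group.
-/

set_option autoImplicit false
set_option maxRecDepth 100000

namespace CfsgLib.Fi22Cover

open CosetEnum (gword gword_cons gword_nil)

attribute [local irreducible] genPk CosetEnum.Fi22.Tab.relWords

/-- The permutations of packed vectors. -/
abbrev PermV : Type := Equiv.Perm (Fin size)

theorem okM_getD {L : List (List ℕ)} (h : L.all okM = true) (x : ℕ) : okM (L.getD x onePk) = true := by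
  rcases Nat.lt_or_ge x L.length with hx | hx
  · rw [List.getD_eq_getElem _ _ hx]; exact List.all_eq_true.1 h _ (List.getElem_mem _)
  · rw [List.getD_eq_default _ _ hx]; decide +kernel

theorem okM_gen (x : ℕ) : okM (genPk.getD x onePk) = true := okM_getD check_gens.2.1 x

/-- A matrix as a map of packed vectors. -/
def genF (x : ℕ) (v : Fin size) : Fin size := ⟨vm (genPk.getD x onePk) v, vm_lt (okM_gen x) v⟩

theorem genF_invol (x : ℕ) : Function.Involutive (genF x) := by
  intro v
  refine Fin.ext ?_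
  show vm (genPk.getD x onePk) (vm (genPk.getD x onePk) v) = v
  rw [← vm_mul (okM_gen x)]
  rcases Nat.lt_or_ge x 9 with hx | hx
  · rw [← mulF_eq (okM_spec (okM_gen x)).1.le, eqM_eq (List.all_eq_true.1 check_gens.2.2 x (List.mem_range.2 hx)),
      vm_onePk v.2]
  · rw [List.getD_eq_default _ _ (by rw [Nat.eq_of_beq_eq_true check_gens.1]; exact hx), vm_mul (by decide +kernel),
      vm_onePk v.2, vm_onePk v.2]

/-- A generator. -/
def genU (x : ℕ) : PermV := (genF_invol x).toPerm

/-- An element is given by a packed matrix. -/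
def Rep (g : PermV) (M : List ℕ) : Prop :=
  okM M = true ∧ ∀ v : Fin size, ((g⁻¹ v : Fin size) : ℕ) = vm M v

theorem Rep.one : Rep 1 onePk :=
  ⟨by decide +kernel, fun v => by rw [inv_one, vm_onePk v.2]; rfl⟩

theorem Rep.mul {g h : PermV} {M N : List ℕ} (hg : Rep g M) (hh : Rep h N) :
    Rep (g * h) (Fi22Cover.mul M N) :=
  ⟨okM_mul hg.1 hh.1, fun v => by rw [mul_inv_rev, Equiv.Perm.mul_apply, hh.2, hg.2, vm_mul hh.1]⟩

theorem Rep.eq {g h : PermV} {M : List ℕ} (hg : Rep g M) (hh : Rep h M) : g = h :=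
  inv_injective (Equiv.ext fun v => Fin.ext ((hg.2 v).trans (hh.2 v).symm))

theorem rep_genU (x : ℕ) : Rep (genU x) (genPk.getD x onePk) :=
  ⟨okM_gen x, fun _ => rfl⟩

theorem rep_gword : ∀ (w : List ℕ), Rep (gword genU w) (evT genPk w)
  | [] => by rw [gword_nil]; exact Rep.one
  | x :: w => by rw [gword_cons]; exact (rep_genU x).mul (rep_gword w)

/-- The group generated by the matrices. -/
def GamV : Subgroup PermV := Subgroup.closure {g | ∃ x < 9, genU x = g}

theorem genU_mem {x : ℕ} (hx : x < 9) : genU x ∈ GamV := Subgroup.subset_closure ⟨x, hx, rfl⟩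

/-- A generator in the generated group. -/
def genG (x : ℕ) : GamV := if h : x < 9 then ⟨genU x, genU_mem h⟩ else 1

theorem coe_gword_genG {w : List ℕ} (hw : ∀ x ∈ w, x < 9) :
    ((gword genG w : GamV) : PermV) = gword genU w := by
  induction w with
  | nil => rw [gword_nil, gword_nil]; rfl
  | cons x w ih =>
    rw [gword_cons, gword_cons, Subgroup.coe_mul, ih fun y hy => hw y (List.mem_cons_of_mem _ hy),
      genG, dif_pos (hw x List.mem_cons_self)]

theorem spiderWord_lt : ∀ x ∈ spiderWord, x < 9 := by decide +kernel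

/-- The scalar. -/
def om : GamV := gword genG spiderWord

theorem rep_om : Rep (om : PermV) (Fi22Cover.mul omPk omPk) := by
  rw [om, coe_gword_genG spiderWord_lt, ← eqM_eq check_spider, evF_evT check_gens.2.1]
  exact rep_gword _

theorem om_comm (a : GamV) : a * om = om * a := by
  have key : ∀ x < 9, genU x * (om : PermV) = (om : PermV) * genU x := by
    intro x _
    refine inv_injective (Equiv.ext fun v => Fin.ext ?_)
    have h2 : okM omPk = true := by decide +kernel
    rw [((rep_genU x).mul rep_om).2, (rep_om.mul (rep_genU x)).2, vm_mul (okM_mul h2 h2), vm_mul h2,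
      vm_mul (okM_gen x), vm_mul h2, vm_omPk (vm_lt (okM_gen x) _), vm_omPk (wm_lt _), vm_omPk v.2,
      vm_omPk (wm_lt _), vm_wm (okM_gen x), vm_wm (okM_gen x)]
  have hle : GamV ≤ Subgroup.centralizer {(om : PermV)} := by
    refine (Subgroup.closure_le _).2 ?_
    rintro _ ⟨x, hx, rfl⟩
    exact Subgroup.mem_centralizer_singleton_iff.2 (key x hx)
  exact Subtype.ext (Subgroup.mem_centralizer_singleton_iff.1 (hle a.2))

theorem rep_om_sq : Rep ((om ^ 2 : GamV) : PermV) omPk := by
  have h := rep_om.mul rep_om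
  rw [show Fi22Cover.mul (Fi22Cover.mul omPk omPk) (Fi22Cover.mul omPk omPk) = omPk by decide +kernel] at h
  rw [pow_two, Subgroup.coe_mul]
  exact h

theorem om_cube : om ^ 3 = 1 := by
  refine Subtype.ext (Rep.eq (M := onePk) ?_ Rep.one)
  have h := rep_om_sq.mul rep_om
  rw [show Fi22Cover.mul omPk (Fi22Cover.mul omPk omPk) = onePk by decide +kernel] at h
  rw [pow_succ, Subgroup.coe_mul]
  exact h

/-- The scalars. -/
def Z : Subgroup GamV := Subgroup.zpowers om

theorem Z_le_center : Z ≤ Subgroup.center GamV := by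
  rw [Z, Subgroup.zpowers_le]
  exact Subgroup.mem_center_iff.2 om_comm

instance normal_Z : Z.Normal :=
  ⟨fun n hn g => by rw [Subgroup.mem_center_iff.1 (Z_le_center hn) g, mul_inv_cancel_right]; exact hn⟩

theorem mem_Z_of_scal {a : GamV} {M : List ℕ} (ha : Rep (a : PermV) M) (h : isScal M = true) : a ∈ Z := by
  simp only [isScal, Bool.or_eq_true] at h
  rcases h with (h | h) | h
  · rw [eqM_eq h] at ha
    rw [show a = 1 from Subtype.ext (ha.eq Rep.one)]
    exact one_mem _
  · rw [eqM_eq h] at ha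
    rw [show a = om ^ 2 from Subtype.ext (ha.eq rep_om_sq)]
    exact pow_mem (Subgroup.mem_zpowers om) 2
  · rw [eqM_eq h] at ha
    rw [show a = om from Subtype.ext (ha.eq rep_om)]
    exact Subgroup.mem_zpowers om

/-- A generator modulo scalars. -/
def genQ (x : ℕ) : GamV ⧸ Z := QuotientGroup.mk (genG x)

theorem gword_genQ : ∀ w ∈ CosetEnum.Fi22.Tab.relWords, gword genQ w = 1 := by
  intro w hw
  obtain ⟨h1, h2⟩ := check_rels
  have hlt : ∀ x ∈ w, x < 9 := fun x hx =>
    Nat.le_of_ble_eq_true (List.all_eq_true.1 (List.all_eq_true.1 h2 w hw) x hx)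
  rw [show gword genQ w = QuotientGroup.mk' Z (gword genG w) from
    (CosetEnum.gword_map (QuotientGroup.mk' Z) _ w).symm]
  refine (QuotientGroup.eq_one_iff _).2 (mem_Z_of_scal (M := evT genPk w) ?_
    (evF_evT check_gens.2.1 w ▸ List.all_eq_true.1 h1 w hw))
  rw [coe_gword_genG hlt]
  exact rep_gword w

theorem genU_sq (x : ℕ) : genU x * genU x = 1 := Equiv.ext fun v => genF_invol x v

theorem genQ_inv (x : ℕ) : genQ x = (genQ x)⁻¹ := by
  refine eq_inv_of_mul_eq_one_left ?_
  rw [genQ, ← QuotientGroup.mk_mul]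
  have : genG x * genG x = 1 := by
    rw [genG]
    split
    · exact Subtype.ext (genU_sq x)
    · exact mul_one 1
  rw [this, QuotientGroup.mk_one]

/-- The projective representation of Fi22. -/
noncomputable def proj : Cfsg.Spor.Fi22 →* GamV ⧸ Z :=
  PresentedGroup.toGroup (f := fun a => genQ (CosetEnum.Fi22.enc a)) fun r hr => by
    rw [CosetEnum.Fi22.rels_eq] at hr
    rw [CosetEnum.map_eq_gword CosetEnum.Fi22.enc (fun y => y)
      (FreeGroup.lift fun a => genQ (CosetEnum.Fi22.enc a)) genQ
      (fun a => FreeGroup.lift_apply_of)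
      (fun a => by rw [FreeGroup.lift_apply_of]; exact (genQ_inv _).symm) r]
    exact CosetEnum.gword_of_wordsFrom genQ (fun y => y) genQ_inv
      CosetEnum.Fi22.relWords_to_list gword_genQ _ (List.mem_map.2 ⟨r, hr, rfl⟩)

theorem proj_gen {x : ℕ} (hx : x < 9) : proj (CosetEnum.Fi22.gen x) = QuotientGroup.mk (genG x) := by
  rw [CosetEnum.Fi22.gen, proj, PresentedGroup.toGroup.of,
    show CosetEnum.Fi22.enc (CosetEnum.Fi22.dec x) = x by interval_cases x <;> rfl]
  rfl

theorem genG_zero_notMem : genG 0 ∉ Z := by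
  intro h
  rw [Z] at h
  obtain ⟨k, hk, he⟩ := (isOfFinOrder_of_finite om).mem_zpowers_iff_mem_range_orderOf.trans
    Finset.mem_image |>.1 h
  have hv : ((genU 0)⁻¹ (⟨1, by norm_num [size]⟩ : Fin size) : Fin size) =
      ((om ^ k : GamV) : PermV)⁻¹ ⟨1, by norm_num [size]⟩ := by
    rw [show (om ^ k : GamV) = genG 0 from he, genG, dif_pos (by norm_num)]
  have hlt : k < 3 := lt_of_lt_of_le (Finset.mem_range.1 hk)
    (orderOf_le_of_pow_eq_one (by norm_num) om_cube)
  have key : ∀ M ∈ [onePk, omPk, Fi22Cover.mul omPk omPk], vm (genPk.getD 0 onePk) 1 ≠ vm M 1 := by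
    decide +kernel
  have hv' := congrArg Fin.val hv
  rw [(rep_genU 0).2] at hv'
  interval_cases k
  · rw [pow_zero, OneMemClass.coe_one, Rep.one.2] at hv'
    exact key _ (by simp) hv'
  · rw [pow_one, rep_om.2] at hv'
    exact key _ (by simp) hv'
  · rw [rep_om_sq.2] at hv'
    exact key _ (by simp) hv'

theorem proj_injective : Function.Injective proj := by
  have := CosetEnum.Fi22.simple
  refine (MonoidHom.ker_eq_bot_iff _).1 ((MonoidHom.normal_ker proj).eq_bot_or_eq_top.resolve_right
    fun h => genG_zero_notMem ((QuotientGroup.eq_one_iff _).1 ?_))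
  rw [← proj_gen (x := 0) (by norm_num)]
  exact MonoidHom.mem_ker.1 (h ▸ Subgroup.mem_top _)

theorem proj_surjective : Function.Surjective proj := by
  intro q
  obtain ⟨a, rfl⟩ := QuotientGroup.mk_surjective q
  obtain ⟨g, hg⟩ := a
  induction hg using Subgroup.closure_induction with
  | mem y hy =>
    obtain ⟨x, hx, rfl⟩ := hy
    refine ⟨CosetEnum.Fi22.gen x, ?_⟩
    rw [proj_gen hx, genG, dif_pos hx]
  | one => exact ⟨1, map_one proj⟩
  | mul y z _ _ hy hz =>
    obtain ⟨a, ha⟩ := hy
    obtain ⟨b, hb⟩ := hz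
    exact ⟨a * b, by rw [map_mul, ha, hb]; rfl⟩
  | inv y _ hy =>
    obtain ⟨a, ha⟩ := hy
    exact ⟨a⁻¹, by rw [map_inv, ha]; rfl⟩

end CfsgLib.Fi22Cover
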