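import Cfsg.Agent.Fi22Cover.Sylow
import Cfsg.Agent.Fi22Cover.ChecksEls
import Cfsg.Agent.Fi22Cover.ChecksRules
import Cfsg.Agent.Fi22Cover.ChecksCert
import Cfsg.Agent.SchurMult.Cover

/-!
The Schur multiplier of Fi22 has order six: the sixfold cover is perfect and has trivial multiplier.
-/

set_option autoImplicit false
set_option maxRecDepth 100000

namespace CfsgLib.Fi22Cover

open Schur.PrimeCert (Cert evalW)

attribute [local irreducible] certTwo certThree certFive wordTwo wordThree wordFive matTwo matThree matFive
  witTwo witThree witFive genU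

theorem els_one {words mats : List (List ℕ)} {ks : List ℕ} (h : elsCheck words mats ks = true) {k : ℕ}
    (hk : k ∈ ks) : elsCheck words mats [k] = true := by
  simp only [elsCheck, List.all_eq_true] at h ⊢
  intro x hx
  rw [List.mem_singleton] at hx
  subst hx
  exact h x hk

theorem rules_one {c : Cert} {words mats : List (List ℕ)} {ks : List ℕ}
    (h : rulesCheck c words mats ks = true) {k : ℕ} (hk : k ∈ ks) :
    (eqM (evF mats (c.rules.getD k ([], [])).1) (evF mats (c.rules.getD k ([], [])).2) &&
      Nat.beq (runEls words (c.rules.getD k ([], [])).1 1) (runEls words (c.rules.getD k ([], [])).2 1)) =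
      true := List.all_eq_true.1 h k hk

theorem fits_two : Fits wordTwo matTwo := by
  obtain ⟨h, -, -, l, -, -, lw, -, -⟩ := check_mats
  refine fits_of_check (l.trans lw.symm) h fun k hk => ?_
  rw [lw] at hk
  by_cases k < 10
  · exact els_one two_els0 (List.mem_range'_1.2 (by omega))
  by_cases k < 13
  · exact els_one two_els1 (List.mem_range'_1.2 (by omega))
  by_cases k < 16
  · exact els_one two_els2 (List.mem_range'_1.2 (by omega))
  by_cases k < 18
  · exact els_one two_els3 (List.mem_range'_1.2 (by omega))
  exact els_one two_els4 (List.mem_range'_1.2 (by omega))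

theorem fits_three : Fits wordThree matThree := by
  obtain ⟨-, h, -, -, l, -, -, lw, -⟩ := check_mats
  refine fits_of_check (l.trans lw.symm) h fun k hk => ?_
  rw [lw] at hk
  by_cases k < 7
  · exact els_one three_els0 (List.mem_range'_1.2 (by omega))
  exact els_one three_els1 (List.mem_range'_1.2 (by omega))

theorem fits_five : Fits wordFive matFive := by
  obtain ⟨-, -, h, -, -, l, -, -, lw⟩ := check_mats
  refine fits_of_check (l.trans lw.symm) h fun k hk => ?_
  rw [lw] at hk
  exact els_one five_els0 (List.mem_range'_1.2 (by omega))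

theorem not_dvd_of_check {c : Cert} {words mats : List (List ℕ)} {wit : List (Bool × ℕ × List ℕ)}
    (F : Fits words mats) (hok : Schur.PrimeCert.ok c = true) (hp : c.p.Prime)
    (hrules : ∀ r < c.rules.length,
      (eqM (evF mats (c.rules.getD r ([], [])).1) (evF mats (c.rules.getD r ([], [])).2) &&
        Nat.beq (runEls words (c.rules.getD r ([], [])).1 1) (runEls words (c.rules.getD r ([], [])).2 1)) =
        true)
    (hwit : ∀ k < c.n, witStep words mats wit c.p k = true) {m : ℕ}
    (hm : 387370509926400 = c.p ^ c.n * m) (hcop : ¬ c.p ∣ m)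
    {Γ : Type*} [Group Γ] [Finite Γ] {σ : Γ →* Cov} (hσ : Cfsg.IsStemExtension σ) :
    ¬ c.p ∣ Nat.card σ.ker := by
  have hr : ∀ r < c.rules.length, evalW (sylG words) (c.rules.getD r ([], [])).1 =
      evalW (sylG words) (c.rules.getD r ([], [])).2 := fun r hr => F.rule (hrules r hr)
  have hok' := hok
  simp only [Schur.PrimeCert.ok, Bool.and_eq_true, decide_eq_true_eq] at hok'
  have hcard := card_closure hp hok'.1.2 (fun r hr' => hr r (by omega))
    (fun k hk d hd hdp => F.escape (hwit k hk) hd hdp) c.n le_rfl
  refine Schur.PrimeCert.not_dvd_card_ker_of_cert hσ hp hok _ hr hcard ?_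
  have hi := (Subgroup.closure (sylG words '' {i | i < c.n})).card_mul_index
  rw [hcard, card_cov, hm] at hi
  rwa [Nat.eq_of_mul_eq_mul_left (pow_pos hp.pos _) hi]

theorem rules_two : ∀ r < 216,
    (eqM (evF matTwo (certTwo.rules.getD r ([], [])).1) (evF matTwo (certTwo.rules.getD r ([], [])).2) &&
      Nat.beq (runEls wordTwo (certTwo.rules.getD r ([], [])).1 1)
        (runEls wordTwo (certTwo.rules.getD r ([], [])).2 1)) = true := by
  intro r hr
  by_cases r < 27
  · exact rules_one two_rules0 (List.mem_range'_1.2 (by omega))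
  by_cases r < 54
  · exact rules_one two_rules1 (List.mem_range'_1.2 (by omega))
  by_cases r < 81
  · exact rules_one two_rules2 (List.mem_range'_1.2 (by omega))
  by_cases r < 108
  · exact rules_one two_rules3 (List.mem_range'_1.2 (by omega))
  by_cases r < 135
  · exact rules_one two_rules4 (List.mem_range'_1.2 (by omega))
  by_cases r < 162
  · exact rules_one two_rules5 (List.mem_range'_1.2 (by omega))
  by_cases r < 189
  · exact rules_one two_rules6 (List.mem_range'_1.2 (by omega))
  exact rules_one two_rules7 (List.mem_range'_1.2 (by omega))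

theorem rules_three : ∀ r < 85,
    (eqM (evF matThree (certThree.rules.getD r ([], [])).1) (evF matThree (certThree.rules.getD r ([], [])).2) &&
      Nat.beq (runEls wordThree (certThree.rules.getD r ([], [])).1 1)
        (runEls wordThree (certThree.rules.getD r ([], [])).2 1)) = true := by
  intro r hr
  by_cases r < 43
  · exact rules_one three_rules0 (List.mem_range'_1.2 (by omega))
  exact rules_one three_rules1 (List.mem_range'_1.2 (by omega))

theorem rules_five : ∀ r < 9,
    (eqM (evF matFive (certFive.rules.getD r ([], [])).1) (evF matFive (certFive.rules.getD r ([], [])).2) &&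
      Nat.beq (runEls wordFive (certFive.rules.getD r ([], [])).1 1)
        (runEls wordFive (certFive.rules.getD r ([], [])).2 1)) = true :=
  fun r hr => rules_one five_rules0 (List.mem_range'_1.2 (by omega))

theorem cover_trivial : Cfsg.HasCyclicSchurMultiplier Cov 1 := by
  refine Schur.hasCyclicSchurMultiplier_one fun Γ _ _ σ hσ p hp => ?_
  have : Fact p.Prime := ⟨hp⟩
  by_cases h2 : p = 2
  · obtain ⟨e, en, -, er, -, -⟩ := two_base
    have hnd := not_dvd_of_check fits_two two_ok (by rw [e]; exact Nat.prime_two)
      (by rw [er]; exact rules_two)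
      (by rw [e, en]; exact fun k hk => List.all_eq_true.1 two_wit k (List.mem_range.2 hk))
      (m := 1477701225) (by rw [e, en]; norm_num) (by rw [e]; norm_num) hσ
    subst h2; rwa [e] at hnd
  by_cases h3 : p = 3
  · obtain ⟨e, en, -, er, -, -⟩ := three_base
    have hnd := not_dvd_of_check fits_three three_ok (by rw [e]; exact Nat.prime_three)
      (by rw [er]; exact rules_three)
      (by rw [e, en]; exact fun k hk => List.all_eq_true.1 three_wit k (List.mem_range.2 hk))
      (m := 6560153600) (by rw [e, en]; norm_num) (by rw [e]; norm_num) hσ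
    subst h3; rwa [e] at hnd
  by_cases h5 : p = 5
  · obtain ⟨e, en, -, er, -, -⟩ := five_base
    have hnd := not_dvd_of_check fits_five five_ok (by rw [e]; exact Nat.prime_five)
      (by rw [er]; exact rules_five)
      (by rw [e, en]; exact fun k hk => List.all_eq_true.1 five_wit k (List.mem_range.2 hk))
      (m := 15494820397056) (by rw [e, en]; norm_num) (by rw [e]; norm_num) hσ
    subst h5; rwa [e] at hnd
  by_cases hd : p ∣ 387370509926400
  · obtain ⟨x, hx⟩ := exists_prime_orderOf_dvd_card' (G := Cov) p (by rw [card_cov]; exact hd)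
    refine Schur.not_dvd_card_ker_of_isCyclic hσ (Subgroup.zpowers x) fun hi => ?_
    have h := (Subgroup.zpowers x).card_mul_index
    rw [Nat.card_zpowers, hx, card_cov] at h
    have hsq : p * p ∣ 387370509926400 := ⟨(Subgroup.zpowers x).index / p, by
      rw [mul_assoc, Nat.mul_div_cancel' hi, h]⟩
    rw [show (387370509926400 : ℕ) = 2 ^ 18 * 3 ^ 10 * 5 ^ 2 * (7 * 11 * 13) by norm_num] at hsq
    have cop : ∀ {q e : ℕ}, q.Prime → p ≠ q → (p * p).Coprime (q ^ e) := fun hq hne =>
      (((Nat.coprime_primes hp hq).2 hne).mul_left ((Nat.coprime_primes hp hq).2 hne)).pow_right _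
    have hs := ((((cop Nat.prime_two h2).mul_right (cop Nat.prime_three h3))).mul_right
      (cop Nat.prime_five h5)).dvd_of_dvd_mul_left hsq
    have hb : p < 32 := by
      have := Nat.le_of_dvd (by norm_num) hs
      nlinarith
    interval_cases p <;> revert hs hp <;> norm_num
  · refine Schur.not_dvd_card_ker_of_isCyclic hσ ⊥ ?_
    rwa [Subgroup.index_bot, card_cov]

theorem multiplier_fi22 : Cfsg.HasCyclicSchurMultiplier Cfsg.Spor.Fi22 6 := by
  have := CosetEnum.Fi22.finite_fi22
  have := ker_card.2
  exact SchurMult.hasSchurMultiplier_of_trivial_cover stem_cover cover_trivial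
    (mulEquivOfCyclicCardEq (ker_card.1.trans (by simp)))

end CfsgLib.Fi22Cover
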