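import Cfsg.Agent.Fi22Cover.Kernel
import Cfsg.Agent.Fi22Cover.ChecksDefs

/-!
Words of certificates in the sixfold cover of Fi22, followed in packed matrices and on the points of Fi23.
-/

set_option autoImplicit false
set_option maxRecDepth 100000

namespace CfsgLib.Fi22Cover

open CosetEnum (gword gword_cons gword_nil runT)
open Schur.PrimeCert (evalW)
open scoped Pointwise

attribute [local irreducible] genPk CosetEnum.Fi22.Tab.relWords CosetEnum.Fi23.Tab.relWords genU

/-- The points of Fi23. -/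
noncomputable def psiP : Cov →* Equiv.Perm (Fin CosetEnum.Fi23.Tab.perm.n) :=
  CosetEnum.Fi23.pi.comp ((MonoidHom.fst _ _).comp Cov.subtype)

/-- The packed vectors. -/
noncomputable def psiV : Cov →* PermV := (MonoidHom.snd _ _).comp Cov.subtype

/-- The element of a certificate word. -/
noncomputable def sylG (words : List (List ℕ)) (k : ℕ) : Cov := gword genC (words.getD k [])

/-- The data of a certificate describe its words. -/
structure Fits (words mats : List (List ℕ)) : Prop where
  lt : ∀ k, ∀ x ∈ words.getD k [], x < 9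
  rep : ∀ k, Rep (psiV (sylG words k)) (mats.getD k onePk)
  pt : ∀ k (i : Fin CosetEnum.Fi23.Tab.perm.n),
    (((psiP (sylG words k))⁻¹ i : Fin CosetEnum.Fi23.Tab.perm.n) : ℕ) =
      runT CosetEnum.Fi23.Tab.perm.T 10 (words.getD k []) i
  ok : mats.all okM = true

theorem fits_of_check {words mats : List (List ℕ)} (hlen : mats.length = words.length)
    (hok : mats.all okM = true) (h : ∀ k < words.length, elsCheck words mats [k] = true) :
    Fits words mats := by
  have hk : ∀ k, (∀ x ∈ words.getD k [], x < 9) ∧ Rep (gword genU (words.getD k [])) (mats.getD k onePk) := by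
    intro k
    rcases Nat.lt_or_ge k words.length with hk | hk
    · have := h k hk
      simp only [elsCheck, List.all_cons, List.all_nil, Bool.and_true, Bool.and_eq_true,
        List.all_eq_true] at this
      refine ⟨fun x hx => Nat.le_of_ble_eq_true (this.1 x hx), ?_⟩
      rw [← eqM_eq this.2, evF_evT check_gens.2.1]
      exact rep_gword _
    · rw [List.getD_eq_default _ _ hk, List.getD_eq_default _ _ (hlen ▸ hk), gword_nil]
      exact ⟨by simp, Rep.one⟩
  refine ⟨fun k => (hk k).1, fun k => ?_, fun k i => ?_, hok⟩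
  · show Rep ((gword genC (words.getD k []) : Cov) : Cfsg.Spor.Fi23 × PermV).2 _
    rw [coe_gword_genC (hk k).1]
    exact (hk k).2
  · have h10 : ∀ x ∈ words.getD k [], x < 10 := fun x hx => Nat.lt_succ_of_lt ((hk k).1 x hx)
    show (((CosetEnum.Fi23.pi ((gword genC (words.getD k []) : Cov) : Cfsg.Spor.Fi23 × PermV).1)⁻¹ i :
      Fin CosetEnum.Fi23.Tab.perm.n) : ℕ) = _
    rw [coe_gword_genC (hk k).1, CosetEnum.Fi23.pi_gword _ h10]
    exact CosetEnum.Fi23.perm_ok.gword_inv_apply _ h10 i

variable {words mats : List (List ℕ)}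

theorem Fits.repW (F : Fits words mats) : ∀ w : List ℕ,
    Rep (psiV (evalW (sylG words) w)) (evT mats w)
  | [] => by rw [Schur.PrimeCert.evalW_nil, map_one]; exact Rep.one
  | k :: w => by rw [Schur.PrimeCert.evalW_cons, map_mul]; exact (F.rep k).mul (F.repW w)

theorem Fits.ptW (F : Fits words mats) : ∀ (w : List ℕ) (i : Fin CosetEnum.Fi23.Tab.perm.n),
    (((psiP (evalW (sylG words) w))⁻¹ i : Fin CosetEnum.Fi23.Tab.perm.n) : ℕ) = runEls words w i
  | [], i => by rw [Schur.PrimeCert.evalW_nil, map_one, inv_one]; rfl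
  | k :: w, i => by
    rw [Schur.PrimeCert.evalW_cons, map_mul, mul_inv_rev, Equiv.Perm.mul_apply, F.ptW w, F.pt k]
    rfl

theorem Fits.rule (F : Fits words mats) {u v : List ℕ}
    (h : (eqM (evF mats u) (evF mats v) &&
      Nat.beq (runEls words u 1) (runEls words v 1)) = true) :
    evalW (sylG words) u = evalW (sylG words) v := by
  rw [Bool.and_eq_true, evF_evT F.ok, evF_evT F.ok] at h
  refine eq_of_snd_of_point (Subtype.ext ?_) ?_
  · exact (F.repW u).eq (eqM_eq h.1 ▸ F.repW v)
  · refine Fin.ext ?_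
    have e1 := F.ptW u (CosetEnum.Fi23.pt 1)
    have e2 := F.ptW v (CosetEnum.Fi23.pt 1)
    rw [CosetEnum.Fi23.pt_val] at e1 e2
    exact e1.trans ((Nat.eq_of_beq_eq_true h.2).trans e2.symm)

theorem iterA_spec {N : ℕ} (f : ℕ → ℕ) (σ : Equiv.Perm (Fin N))
    (hf : ∀ i : Fin N, ((σ⁻¹ i : Fin N) : ℕ) = f i) :
    ∀ (e : ℕ) (i : Fin N) (d : ℕ), d < e → (((σ⁻¹ ^ (d + 1)) i : Fin N) : ℕ) ∈ iterA f e i
  | 0, _, d, hd => absurd hd (Nat.not_lt_zero d)
  | e + 1, i, 0, _ => by rw [zero_add, pow_one, hf, iterA]; exact List.mem_cons_self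
  | e + 1, i, d + 1, hd => by
    rw [pow_succ, Equiv.Perm.mul_apply, iterA, ← hf i]
    exact List.mem_cons_of_mem _ (iterA_spec f σ hf e _ d (by omega))

theorem hasN_iff (l : List ℕ) (v : ℕ) : hasN l v = true ↔ v ∈ l := by
  simp only [hasN, List.any_eq_true]
  exact ⟨fun ⟨u, hu, he⟩ => Nat.eq_of_beq_eq_true he ▸ hu, fun h => ⟨v, h, Nat.beq_refl v⟩⟩

theorem escape_of_orbit {N : ℕ} (ψ : Cov →* Equiv.Perm (Fin N)) (s : ℕ → Cov) (f : ℕ → ℕ → ℕ)
    (hf : ∀ j i, (((ψ (s j))⁻¹ i : Fin N) : ℕ) = f j i) {p k a : ℕ} {O : List ℕ} (ha : a < N)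
    (hin : a ∈ O) (hinv : ∀ j < k, ∀ v ∈ O, f j v ∈ O) (hesc : ∀ w ∈ iterA (f k) (p - 1) a, w ∉ O)
    {d : ℕ} (hd : 1 ≤ d) (hdp : d < p) : s k ^ d ∉ Subgroup.closure (s '' {i | i < k}) := by
  intro hmem
  set S : Set (Fin N) := {i | (i : ℕ) ∈ O}
  have key : ∀ g ∈ Subgroup.closure (s '' {i | i < k}), ψ g • S = S := by
    intro g hg
    induction hg using Subgroup.closure_induction with
    | mem y hy =>
      obtain ⟨j, hj, rfl⟩ := hy
      have hsub : (ψ (s j))⁻¹ • S ⊆ S := by
        rintro _ ⟨v, hv, rfl⟩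
        show (((ψ (s j))⁻¹ v : Fin N) : ℕ) ∈ O
        rw [hf]
        exact hinv j hj _ hv
      have heq := Set.eq_of_subset_of_ncard_le hsub
        (le_of_eq (Set.ncard_image_of_injective S (MulAction.injective _)).symm) (Set.toFinite S)
      conv_lhs => rw [← heq]
      rw [smul_inv_smul]
    | one => rw [map_one, one_smul]
    | mul x y _ _ hx hy => rw [map_mul, mul_smul, hy, hx]
    | inv x _ hx =>
      rw [map_inv]
      conv_lhs => rw [← hx]
      rw [inv_smul_smul]
  have h1 := key _ hmem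
  have h2 : (ψ (s k ^ d))⁻¹ • (⟨a, ha⟩ : Fin N) ∈ (ψ (s k ^ d))⁻¹ • S :=
    Set.smul_mem_smul_set (show (⟨a, ha⟩ : Fin N) ∈ S from hin)
  have h4 : (ψ (s k ^ d))⁻¹ • S = S := by
    conv_lhs => rw [← h1]
    rw [inv_smul_smul]
  rw [h4] at h2
  rw [map_pow, ← inv_pow] at h2
  have h3 := iterA_spec (f k) _ (hf k) (p - 1) ⟨a, ha⟩ (d - 1) (by omega)
  rw [Nat.sub_add_cancel hd] at h3
  exact hesc _ h3 h2

theorem Fits.escape (F : Fits words mats) {wit : List (Bool × ℕ × List ℕ)} {p k d : ℕ}
    (h : witStep words mats wit p k = true) (hd : 1 ≤ d) (hdp : d < p) :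
    sylG words k ^ d ∉ Subgroup.closure (sylG words '' {i | i < k}) := by
  simp only [witStep, Bool.and_eq_true, List.all_eq_true, List.mem_range, hasN_iff] at h
  obtain ⟨⟨⟨hlt, hin⟩, hinv⟩, hesc⟩ := h
  have hesc' : ∀ w ∈ iterA (actOn words mats (wit.getD k (true, 0, [])).1 k) (p - 1)
      (wit.getD k (true, 0, [])).2.1, w ∉ (wit.getD k (true, 0, [])).2.2 := by
    intro w hw hm
    have := hesc w hw
    rw [(hasN_iff _ _).2 hm] at this
    exact absurd this (by simp)
  have ha := Nat.le_of_ble_eq_true (hlt _ hin)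
  generalize wit.getD k (true, 0, []) = t at hin hinv hesc' ha
  obtain ⟨b, a, O⟩ := t
  cases b with
  | true =>
    exact escape_of_orbit psiP _ (actOn words mats true) F.pt (N := CosetEnum.Fi23.Tab.perm.n)
      (lt_of_lt_of_le ha (le_of_eq (by rfl))) hin hinv hesc' hd hdp
  | false =>
    refine escape_of_orbit psiV _ (actOn words mats false) (fun j i => ?_) ha hin hinv hesc' hd hdp
    rw [(F.rep j).2 i]
    exact (vmF_eq (okM_spec (okM_getD F.ok j)).1.le _).symm

/-- The generators of a certificate generate a subgroup of the expected order. -/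
theorem card_closure {c : Schur.PrimeCert.Cert} (hp : c.p.Prime)
    (hsh : Schur.PrimeCert.shapeOK c = true) {s : ℕ → Cov}
    (hz : ∀ r < c.picks.length, evalW s (c.rules.getD r ([], [])).1 = evalW s (c.rules.getD r ([], [])).2)
    (hesc : ∀ k < c.n, ∀ d, 1 ≤ d → d < c.p → s k ^ d ∉ Subgroup.closure (s '' {i | i < k})) :
    ∀ n ≤ c.n, Nat.card (Subgroup.closure (s '' {i | i < n})) = c.p ^ n := by
  intro n hn
  induction n with
  | zero =>
    have : Subgroup.closure (s '' {i | i < 0}) = ⊥ := by simp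
    rw [this]
    simp
  | succ n ih =>
    have hcard := ih (by omega)
    set K := Subgroup.closure (s '' {i | i < n}) with hK
    set H := Subgroup.closure (s '' {i | i < n + 1}) with hH
    let f : Fin c.p × K → H := fun q => ⟨s n ^ (q.1 : ℕ) * q.2, H.mul_mem
      (H.pow_mem (Subgroup.subset_closure ⟨n, Nat.lt_succ_self n, rfl⟩) _)
      (Subgroup.closure_mono (Set.image_mono fun i hi => Nat.lt_succ_of_lt hi) q.2.2)⟩
    have hfi : Function.Injective f := by
      rintro ⟨a, x⟩ ⟨b, y⟩ h
      have h' : s n ^ (a : ℕ) * (x : Cov) = s n ^ (b : ℕ) * y := congrArg Subtype.val h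
      wlog hab : (a : ℕ) ≤ b generalizing a b x y
      · exact (this b y a x h.symm h'.symm (by omega)).symm
      have e : s n ^ ((b : ℕ) - a) * (y : Cov) = x := by
        rw [← mul_right_inj (s n ^ (a : ℕ)), ← mul_assoc, ← pow_add, Nat.add_sub_cancel' hab, h']
      have hab' : (a : ℕ) = b := by
        by_contra hne
        refine hesc n (by omega) ((b : ℕ) - a) (by omega) (by omega) ?_
        rw [← mul_inv_eq_of_eq_mul (G := Cov) e.symm]
        exact K.mul_mem x.2 (K.inv_mem y.2)
      rw [← hab', mul_right_inj] at h'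
      exact Prod.ext (Fin.ext hab') (Subtype.ext h')
    refine le_antisymm ?_ ?_
    · rw [show Nat.card H = (H : Set Cov).ncard from Nat.card_coe_set_eq _]
      exact Schur.PrimeCert.ncard_closure_le hp.pos hsh s hz (n + 1) hn
    · have := Finite.of_fintype (Fin c.p)
      have hge := Nat.card_le_card_of_injective f hfi
      rwa [Nat.card_prod, Nat.card_fin, hcard, ← pow_succ'] at hge

end CfsgLib.Fi22Cover
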