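import Mathlib

/-!
Packed vectors of length 27 over the field with four elements and matrices acting on them as permutations
of the set of packed vectors.
-/

set_option autoImplicit false
set_option maxRecDepth 100000

namespace CfsgLib.Fi22Cover

/-- The low 27 bits. -/
def low (r : ℕ) : ℕ := r % 134217728

/-- The number of packed vectors. -/
def size : ℕ := 18014398509481984

/-- Multiplication by the primitive cube root of unity. -/
def wm (r : ℕ) : ℕ := low (r >>> 27) ||| ((low r ^^^ low (r >>> 27)) <<< 27)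

/-- A combination of rows. -/
def comb : List ℕ → ℕ → ℕ → ℕ
  | [], _, _ => 0
  | c :: cs, lo, hi =>
    (bif lo.testBit 0 then c else 0) ^^^ (bif hi.testBit 0 then wm c else 0) ^^^
      comb cs (lo >>> 1) (hi >>> 1)

/-- A vector times a matrix. -/
def vm (M : List ℕ) (v : ℕ) : ℕ := comb M v (v >>> 27)

/-- The product of matrices. -/
def mul (A B : List ℕ) : List ℕ := A.map (vm B)

/-- Equality of packed matrices. -/
def eqM : List ℕ → List ℕ → Bool
  | [], [] => true
  | a :: as, b :: bs => Nat.beq a b && eqM as bs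
  | _, _ => false

theorem eqM_eq : ∀ {A B : List ℕ}, eqM A B = true → A = B
  | [], [], _ => rfl
  | a :: as, b :: bs, h => by
    rw [eqM, Bool.and_eq_true] at h
    rw [Nat.eq_of_beq_eq_true h.1, eqM_eq h.2]
  | [], _ :: _, h => by simp [eqM] at h
  | _ :: _, [], h => by simp [eqM] at h

/-- A matrix with all rows packed vectors. -/
def okM (M : List ℕ) : Bool := Nat.beq M.length 27 && M.all fun r => Nat.blt r size

theorem testBit_low (r j : ℕ) : (low r).testBit j = (decide (j < 27) && r.testBit j) := by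
  rw [low, show 134217728 = 2 ^ 27 by norm_num, Nat.testBit_mod_two_pow]

theorem testBit_wm (r j : ℕ) : (wm r).testBit j =
    ((decide (j < 27) && r.testBit (j + 27)) ||
      (decide (27 ≤ j ∧ j < 54) && (r.testBit (j - 27) ^^ r.testBit j))) := by
  simp only [wm, Nat.testBit_or, Nat.testBit_shiftLeft, Nat.testBit_xor, testBit_low,
    Nat.testBit_shiftRight]
  by_cases h : j < 27
  · simp [h, show ¬ 27 ≤ j by omega, Nat.add_comm 27 j]
  · have h' : 27 ≤ j := by omega
    by_cases h2 : j < 54
    · simp [h, h', h2, show j - 27 < 27 by omega, show 27 + (j - 27) = j by omega]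
    · simp [h, h', h2, show ¬ (j - 27 < 27) by omega]

theorem testBit_of_lt {r : ℕ} (h : r < size) {j : ℕ} (hj : 54 ≤ j) : r.testBit j = false :=
  Nat.testBit_eq_false_of_lt (lt_of_lt_of_le (show r < 2 ^ 54 by rw [← show size = 2 ^ 54 by norm_num [size]]; exact h)
    (Nat.pow_le_pow_right (by norm_num) hj))

theorem xor_lt {a b : ℕ} (ha : a < size) (hb : b < size) : a ^^^ b < size := by
  rw [show size = 2 ^ 54 by norm_num [size]] at *
  exact Nat.xor_lt_two_pow ha hb

theorem wm_lt (r : ℕ) : wm r < size := by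
  rw [show size = 2 ^ 54 by norm_num [size]]
  refine Nat.lt_pow_two_of_testBit _ fun j hj => ?_
  rw [testBit_wm]
  simp [show ¬ j < 27 by omega, show ¬ j < 54 by omega]

theorem wm_xor (a b : ℕ) : wm (a ^^^ b) = wm a ^^^ wm b := by
  refine Nat.eq_of_testBit_eq fun j => ?_
  simp only [testBit_wm, Nat.testBit_xor]
  by_cases h : j < 27
  · simp [h, show ¬ 27 ≤ j by omega]
  · by_cases h2 : j < 54
    · simp [h, h2, show 27 ≤ j by omega]
      cases a.testBit (j - 27) <;> cases a.testBit j <;> cases b.testBit (j - 27) <;> cases b.testBit j <;> rfl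
    · simp [h, h2]

theorem wm_wm {c : ℕ} (hc : c < size) : wm (wm c) = c ^^^ wm c := by
  refine Nat.eq_of_testBit_eq fun j => ?_
  simp only [testBit_wm, Nat.testBit_xor]
  by_cases h : j < 27
  · simp [h, show ¬ (j + 27 < 27) by omega, show 27 ≤ j + 27 by omega, show j + 27 < 54 by omega,
      show ¬ 27 ≤ j by omega]
  · by_cases h2 : j < 54
    · simp [h, h2, show 27 ≤ j by omega, show j - 27 < 27 by omega, show ¬ 27 ≤ j - 27 by omega,
        show j - 27 + 27 = j by omega]
    · simp [h, h2, testBit_of_lt hc (show 54 ≤ j by omega)]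

theorem wm_zero : wm 0 = 0 := rfl

theorem comb_xor : ∀ (M : List ℕ) (lo lo' hi hi' : ℕ),
    comb M (lo ^^^ lo') (hi ^^^ hi') = comb M lo hi ^^^ comb M lo' hi'
  | [], _, _, _, _ => by simp [comb]
  | c :: cs, lo, lo', hi, hi' => by
    simp only [comb, Nat.shiftRight_xor_distrib, comb_xor cs, Nat.testBit_xor]
    refine Nat.eq_of_testBit_eq fun j => ?_
    cases lo.testBit 0 <;> cases lo'.testBit 0 <;> cases hi.testBit 0 <;> cases hi'.testBit 0 <;>
      simp <;> cases c.testBit j <;> cases (wm c).testBit j <;>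
      cases (comb cs (lo >>> 1) (hi >>> 1)).testBit j <;>
      cases (comb cs (lo' >>> 1) (hi' >>> 1)).testBit j <;> rfl

theorem vm_xor (M : List ℕ) (a b : ℕ) : vm M (a ^^^ b) = vm M a ^^^ vm M b := by
  rw [vm, vm, vm, Nat.shiftRight_xor_distrib, comb_xor]

theorem comb_lt : ∀ (M : List ℕ), (∀ r ∈ M, r < size) → ∀ lo hi, comb M lo hi < size
  | [], _, _, _ => by norm_num [comb, size]
  | c :: cs, h, lo, hi => by
    rw [comb]
    refine xor_lt (xor_lt ?_ ?_) (comb_lt cs (fun r hr => h r (List.mem_cons_of_mem _ hr)) _ _)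
    · cases lo.testBit 0
      · norm_num [size]
      · exact h c List.mem_cons_self
    · cases hi.testBit 0
      · norm_num [size]
      · exact wm_lt c

theorem okM_spec {M : List ℕ} (h : okM M = true) : M.length = 27 ∧ ∀ r ∈ M, r < size := by
  simp only [okM, Bool.and_eq_true, List.all_eq_true] at h
  exact ⟨Nat.eq_of_beq_eq_true h.1, fun r hr => Nat.le_of_ble_eq_true (h.2 r hr)⟩

theorem vm_lt {M : List ℕ} (h : okM M = true) (v : ℕ) : vm M v < size :=
  comb_lt M (okM_spec h).2 _ _

/-- The low bits are those of the first argument only. -/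
theorem comb_low : ∀ (M : List ℕ) (lo lo' hi hi' : ℕ), (∀ j < M.length, lo.testBit j = lo'.testBit j) →
    (∀ j < M.length, hi.testBit j = hi'.testBit j) → comb M lo hi = comb M lo' hi'
  | [], _, _, _, _, _, _ => rfl
  | c :: cs, lo, lo', hi, hi', h1, h2 => by
    rw [comb, comb, h1 0 (by simp), h2 0 (by simp), comb_low cs (lo >>> 1) (lo' >>> 1) (hi >>> 1) (hi' >>> 1)
      (fun j hj => by simpa [Nat.testBit_shiftRight] using h1 (1 + j) (by rw [List.length_cons]; omega))
      (fun j hj => by simpa [Nat.testBit_shiftRight] using h2 (1 + j) (by rw [List.length_cons]; omega))]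

theorem comb_wm : ∀ (M : List ℕ), (∀ r ∈ M, r < size) → ∀ lo hi,
    comb M hi (lo ^^^ hi) = wm (comb M lo hi)
  | [], _, _, _ => by simp only [comb, wm_zero]
  | c :: cs, h, lo, hi => by
    rw [comb, comb, wm_xor, wm_xor, Nat.shiftRight_xor_distrib,
      comb_wm cs (fun r hr => h r (List.mem_cons_of_mem _ hr)), Nat.testBit_xor]
    congr 1
    cases lo.testBit 0 <;> cases hi.testBit 0 <;> simp [wm_zero, wm_wm (h c List.mem_cons_self)]

theorem vm_wm {M : List ℕ} (hM : okM M = true) (v : ℕ) : vm M (wm v) = wm (vm M v) := by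
  obtain ⟨hl, hr⟩ := okM_spec hM
  rw [vm, vm, ← comb_wm M hr v (v >>> 27)]
  refine comb_low M _ _ _ _ (fun j hj => ?_) (fun j hj => ?_)
  · rw [hl] at hj
    simp [testBit_wm, Nat.testBit_shiftRight, hj, Nat.add_comm 27 j, show ¬ 27 ≤ j by omega]
  · rw [hl] at hj
    simp [Nat.testBit_shiftRight, testBit_wm, show ¬ (27 + j < 27) by omega, show 27 + j < 54 by omega,
      show 27 + j - 27 = j by omega]

theorem vm_zero (M : List ℕ) : vm M 0 = 0 := by
  have h := vm_xor M 0 0
  rw [Nat.xor_self, Nat.xor_self] at h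
  exact h

theorem comb_map {B : List ℕ} (hB : okM B = true) : ∀ (A : List ℕ) (lo hi : ℕ),
    comb (A.map (vm B)) lo hi = vm B (comb A lo hi)
  | [], _, _ => by simp only [List.map_nil, comb, vm_zero]
  | c :: cs, lo, hi => by
    rw [List.map_cons, comb, comb, comb_map hB cs, vm_xor, vm_xor]
    cases lo.testBit 0 <;> cases hi.testBit 0 <;> simp [vm_zero, vm_wm hB]

theorem vm_mul {A B : List ℕ} (hB : okM B = true) (v : ℕ) : vm (mul A B) v = vm B (vm A v) :=
  comb_map hB A _ _

theorem okM_mul {A B : List ℕ} (hA : okM A = true) (hB : okM B = true) : okM (mul A B) = true := by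
  simp only [okM, mul, List.length_map, Bool.and_eq_true, List.all_eq_true, List.mem_map]
  refine ⟨by rw [(okM_spec hA).1]; rfl, ?_⟩
  rintro x ⟨y, -, rfl⟩
  exact Nat.ble_eq_true_of_le (vm_lt hB y)

/-- Additive functions agree if they agree on the powers of two. -/
theorem ext_linear {f g : ℕ → ℕ} (hf : ∀ a b, f (a ^^^ b) = f a ^^^ f b)
    (hg : ∀ a b, g (a ^^^ b) = g a ^^^ g b) (h : ∀ k < 54, f (2 ^ k) = g (2 ^ k)) :
    ∀ k ≤ 54, ∀ v < 2 ^ k, f v = g v := by
  intro k hk
  induction k with
  | zero =>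
    intro v hv
    have hv0 : v = 0 := by simpa using hv
    have e1 := hf 0 0
    have e2 := hg 0 0
    rw [Nat.xor_self, Nat.xor_self] at e1 e2
    rw [hv0, e1, e2]
  | succ k ih =>
    intro v hv
    by_cases hb : v.testBit k
    · have e : v = (v ^^^ 2 ^ k) ^^^ 2 ^ k := by rw [Nat.xor_assoc, Nat.xor_self, Nat.xor_zero]
      rw [e, hf, hg, h k (by omega), ih (by omega) _ (Nat.lt_pow_two_of_testBit _ fun j hj => ?_)]
      rw [Nat.testBit_xor, Nat.testBit_two_pow]
      rcases Nat.eq_or_lt_of_le hj with rfl | hlt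
      · simp [hb]
      · simp [show ¬ k = j by omega, Nat.testBit_eq_false_of_lt (lt_of_lt_of_le hv (Nat.pow_le_pow_right (by norm_num) hlt))]
    · refine ih (by omega) v (Nat.lt_pow_two_of_testBit _ fun j hj => ?_)
      rcases Nat.eq_or_lt_of_le hj with rfl | hlt
      · simpa using hb
      · exact Nat.testBit_eq_false_of_lt (lt_of_lt_of_le hv (Nat.pow_le_pow_right (by norm_num) hlt))

/-- The scalar matrix of the coefficient `1`. -/
def onePk : List ℕ := (List.range 27).map fun i => 2 ^ i

/-- The scalar matrix of the primitive cube root of unity. -/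
def omPk : List ℕ := (List.range 27).map fun i => 2 ^ (i + 27)

theorem onePk_basis : ∀ k < 54, vm onePk (2 ^ k) = 2 ^ k := by decide +kernel

theorem omPk_basis : ∀ k < 54, vm omPk (2 ^ k) = wm (2 ^ k) := by decide +kernel

theorem size_eq : size = 2 ^ 54 := by norm_num [size]

theorem vm_onePk {v : ℕ} (hv : v < size) : vm onePk v = v :=
  ext_linear (g := fun v => v) (vm_xor onePk) (fun _ _ => rfl) onePk_basis 54 le_rfl v (size_eq ▸ hv)

theorem vm_omPk {v : ℕ} (hv : v < size) : vm omPk v = wm v :=
  ext_linear (vm_xor omPk) wm_xor omPk_basis 54 le_rfl v (size_eq ▸ hv)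

end CfsgLib.Fi22Cover
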